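import Cfsg.Agent.SporadicB.RuNets
import Cfsg.Agent.SporadicB.RuRows
set_option linter.all false

/-! The generators preserve the adjacency rows. -/

set_option autoImplicit false
set_option maxRecDepth 100000

namespace Cfsg.Agent.SporadicB.RuCheckA2

open Cfsg.Agent.SporadicB Cfsg.Agent.SporadicB.PermNet Cfsg.Agent.SporadicB.NetGroup
  Cfsg.Agent.SporadicB.GraphRefine Cfsg.Agent.SporadicB.RuNets

theorem aut_x1 : autTest x1 RuRows.tree 12 = true := by decide +kernel

theorem aut_x2 : autTest x2 RuRows.tree 12 = true := by decide +kernel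

theorem aut_k0 : autTest k0 RuRows.tree 12 = true := by decide +kernel

theorem aut_g0 : autTest g0 RuRows.tree 12 = true := by decide +kernel

end Cfsg.Agent.SporadicB.RuCheckA2
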