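import Cfsg.Agent.SporadicB.RuNets
import Cfsg.Agent.SporadicB.RuRel
set_option linter.all false

/-! The relation preserved by the Tits group. -/

set_option autoImplicit false
set_option maxRecDepth 100000

namespace Cfsg.Agent.SporadicB.RuCheckR

open Cfsg.Agent.SporadicB Cfsg.Agent.SporadicB.PermNet Cfsg.Agent.SporadicB.NetGroup
  Cfsg.Agent.SporadicB.GraphRefine Cfsg.Agent.SporadicB.RuNets

theorem perf : perfect RuRel.tree 12 = true := by decide +kernel

theorem rel_u1 : autTest u1 RuRel.tree 12 = true := by decide +kernel

theorem rel_u2 : autTest u2 RuRel.tree 12 = true := by decide +kernel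

theorem rel_v1 : autTest v1 RuRel.tree 12 = true := by decide +kernel

theorem rel_v2 : autTest v2 RuRel.tree 12 = true := by decide +kernel

theorem rel_x1 : autTest x1 RuRel.tree 12 = true := by decide +kernel

theorem rel_x2 : autTest x2 RuRel.tree 12 = true := by decide +kernel

theorem notrel_k0 : Nat.beq (run k0 (get RuRel.tree 12 1756)) (get RuRel.tree 12 1756) = false := by
  decide +kernel

end Cfsg.Agent.SporadicB.RuCheckR
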